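import Mathlib

/-! Diagonal quadratic forms over a finite field of odd order are classified by their discriminant. -/

set_option autoImplicit false

namespace CfsgLib.Quad54

open Polynomial in
theorem exists_mul_sq_add_mul_sq_eq_one {F : Type*} [Field F] [Fintype F] (h2 : (2 : F) ≠ 0)
    {a b : F} (ha : a ≠ 0) (hb : b ≠ 0) : ∃ x y : F, a * x ^ 2 + b * y ^ 2 = 1 := by
  have hR : Fintype.card F % 2 = 1 := by
    apply FiniteField.odd_card_of_char_ne_two
    intro h
    apply h2
    have : ((2 : ℕ) : F) = 0 := by rw [← h]; exact CharP.cast_eq_zero F (ringChar F)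
    simpa using this
  obtain ⟨x, y, h⟩ := FiniteField.exists_root_sum_quadratic (f := C a * X ^ 2) (g := C b * X ^ 2 - 1)
    (by rw [degree_C_mul_X_pow 2 ha]; rfl)
    (by rw [degree_sub_eq_left_of_degree_lt (by rw [degree_C_mul_X_pow 2 hb, degree_one]; decide),
          degree_C_mul_X_pow 2 hb]; rfl) hR
  refine ⟨x, y, ?_⟩
  simp at h
  linear_combination h

/-- `diag(w)` is isometric to `diag(1, …, 1, ∏ w)`. -/
theorem exists_isometry_diag_last {F : Type*} [Field F] [Fintype F] (h2 : (2 : F) ≠ 0) :
    ∀ (n : ℕ) (w : Fin (n + 1) → F), (∀ i, w i ≠ 0) →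
      ∃ g : (Fin (n + 1) → F) ≃ₗ[F] (Fin (n + 1) → F), ∀ v,
        ∑ i, w i * g v i ^ 2 =
          ∑ i : Fin n, v i.castSucc ^ 2 + (∏ i, w i) * v (Fin.last n) ^ 2 := by
  intro n
  induction n with
  | zero => intro w _; exact ⟨LinearEquiv.refl F _, fun v => by simp⟩
  | succ n ih =>
    intro w hw
    obtain ⟨x, y, hxy⟩ := exists_mul_sq_add_mul_sq_eq_one h2 (hw 0) (hw (Fin.succ 0))
    let w' : Fin (n + 1) → F := Fin.cons (w 0 * w (Fin.succ 0)) (fun i => w i.succ.succ)
    have hw' : ∀ i, w' i ≠ 0 := by
      intro i; refine Fin.cases ?_ (fun j => ?_) i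
      · simpa [w'] using mul_ne_zero (hw 0) (hw (Fin.succ 0))
      · simpa [w'] using hw _
    obtain ⟨g, hg⟩ := ih w' hw'
    let h : (Fin (n + 2) → F) →ₗ[F] (Fin (n + 2) → F) :=
      { toFun := fun v => Fin.cons (x * v 0 - w (Fin.succ 0) * y * g (fun i => v i.succ) 0)
          (Fin.cons (y * v 0 + w 0 * x * g (fun i => v i.succ) 0)
            (fun i => g (fun i => v i.succ) i.succ))
        map_add' := fun u v => by
          have e : g (fun i => u i.succ + v i.succ) = g (fun i => u i.succ) + g (fun i => v i.succ) := by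
            rw [← map_add]; rfl
          funext i
          refine Fin.cases ?_ (fun j => Fin.cases ?_ (fun k => ?_) j) i <;>
            simp only [e, Fin.cons_zero, Fin.cons_succ, Pi.add_apply] <;> ring
        map_smul' := fun c v => by
          have e : g (fun i => c * v i.succ) = c • g (fun i => v i.succ) := by
            rw [← map_smul]; rfl
          funext i
          refine Fin.cases ?_ (fun j => Fin.cases ?_ (fun k => ?_) j) i <;>
            simp only [e, Fin.cons_zero, Fin.cons_succ, Pi.smul_apply, smul_eq_mul, RingHom.id_apply] <;> ring }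
    have hinj : Function.Injective h := by
      rw [← LinearMap.ker_eq_bot, LinearMap.ker_eq_bot']
      intro v hv
      have e0 := congrFun hv 0
      have e1 := congrFun hv (Fin.succ 0)
      simp only [h, LinearMap.coe_mk, AddHom.coe_mk, Fin.cons_zero, Fin.cons_succ, Pi.zero_apply] at e0 e1
      set s := g (fun i => v i.succ) 0 with hs
      have hv0 : v 0 = 0 := by linear_combination (w 0 * x) * e0 + (w (Fin.succ 0) * y) * e1 - v 0 * hxy
      have hs0 : s = 0 := by linear_combination x * e1 - y * e0 - s * hxy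
      have hz : g (fun i => v i.succ) = 0 := by
        funext i; refine Fin.cases hs0 (fun j => ?_) i
        have ej := congrFun hv j.succ.succ
        simpa [h] using ej
      have := g.map_eq_zero_iff.mp hz
      funext i; refine Fin.cases hv0 (fun j => congrFun this j) i
    refine ⟨LinearEquiv.ofInjectiveEndo h hinj, fun v => ?_⟩
    have key := hg (fun i => v i.succ)
    rw [LinearEquiv.coe_ofInjectiveEndo, Fin.sum_univ_succ, Fin.sum_univ_succ]
    rw [Fin.sum_univ_succ] at key
    rw [Fin.sum_univ_succ (f := fun i : Fin (n + 1) => v i.castSucc ^ 2)]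
    rw [Fin.prod_univ_succ, Fin.prod_univ_succ]
    rw [Fin.prod_univ_succ] at key
    simp only [h, w', LinearMap.coe_mk, AddHom.coe_mk, Fin.cons_zero, Fin.cons_succ,
      Fin.castSucc_zero, Fin.castSucc_succ, ← Fin.succ_last] at key ⊢
    linear_combination key + (v 0 ^ 2 + w 0 * w (Fin.succ 0) * (g (fun i => v i.succ) 0) ^ 2) * hxy

end CfsgLib.Quad54
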